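import Cfsg.Agent.Lib.Suz.Mult

/-! The field with eight elements. -/

set_option autoImplicit false

namespace Cfsg.Agent.Lib.Suz8

open Cfsg.Agent.Lib.Suz

variable {F : Type*} [Field F] [Fintype F] [CharP F 2] (c : Ctx F 1)

include c

theorem card_eight : Fintype.card F = 8 := by rw [c.hF]; norm_num

theorem pow_eight (x : F) : x ^ 8 = x := by
  have := FiniteField.pow_card x
  rwa [card_eight c] at this

theorem pow_seven {x : F} (hx : x ≠ 0) : x ^ 7 = 1 := by
  have := FiniteField.pow_card_sub_one_eq_one x hx
  rwa [card_eight c] at this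

theorem th_eq (x : F) : th F 1 x = x ^ 4 := by
  rw [th_apply]; norm_num

/-- Coordinates with respect to the powers of an element outside the prime field. -/
def coords (r : F) : ZMod 2 × ZMod 2 × ZMod 2 →+ F where
  toFun e := ZMod.castHom (dvd_refl 2) F e.1 + ZMod.castHom (dvd_refl 2) F e.2.1 * r +
    ZMod.castHom (dvd_refl 2) F e.2.2 * r ^ 2
  map_zero' := by simp
  map_add' e e' := by
    simp only [Prod.fst_add, Prod.snd_add, map_add]
    ring

theorem coords_bijective {r : F} (h0 : r ≠ 0) (h1 : r ≠ 1) : Function.Bijective (coords r) := by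
  have h2 : (2 : F) = 0 := two0
  have h7 := pow_seven c h0
  have hne1 : r + 1 ≠ 0 := fun e => h1 (by linear_combination e - h2)
  have hne2 : r ^ 2 + 1 ≠ 0 := fun e => hne1 (sq_eq_zero_iff.1 (by linear_combination e + r * h2))
  have hne3 : r ^ 2 + r ≠ 0 := fun e => by
    have : r * (r + 1) = 0 := by linear_combination e
    rcases mul_eq_zero.1 this with h | h
    exacts [h0 h, hne1 h]
  have hne4 : r ^ 2 + r + 1 ≠ 0 := fun e => by
    have h3 : r ^ 3 = 1 := by linear_combination (r - 1) * e
    refine h1 ?_
    calc r = (r ^ 3) ^ 2 * r := by rw [h3, one_pow, one_mul]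
      _ = r ^ 7 := by ring
      _ = 1 := h7
  refine (Fintype.bijective_iff_injective_and_card _).2 ⟨?_, by rw [card_eight c]; rfl⟩
  rw [injective_iff_map_eq_zero]
  rintro ⟨e0, e1, e2⟩ he
  have hcase : ∀ e : ZMod 2, e = 0 ∨ e = 1 := by decide
  simp only [coords, AddMonoidHom.coe_mk, ZeroHom.coe_mk] at he
  rcases hcase e0 with rfl | rfl <;> rcases hcase e1 with rfl | rfl <;> rcases hcase e2 with rfl | rfl <;>
    simp only [map_zero, map_one, zero_mul, one_mul, zero_add, add_zero] at he ⊢
  · rfl
  · exact absurd he (pow_ne_zero 2 h0)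
  · exact absurd he h0
  · exact absurd (by linear_combination he) hne3
  · exact absurd he one_ne_zero
  · exact absurd (by linear_combination he) hne2
  · exact absurd (by linear_combination he) hne1
  · exact absurd (by linear_combination he) hne4

theorem exists_gen : ∃ r : F, r ≠ 0 ∧ r ≠ 1 := by
  classical
  have : ({0, 1} : Finset F).card < Fintype.card F :=
    lt_of_le_of_lt Finset.card_le_two (by rw [card_eight c]; norm_num)
  obtain ⟨r, hr⟩ : ∃ r, r ∉ ({0, 1} : Finset F) := by
    by_contra h
    push Not at h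
    exact absurd this (not_lt.2 (by rw [← Finset.card_univ]; exact Finset.card_le_card fun x _ => h x))
  simp only [Finset.mem_insert, Finset.mem_singleton, not_or] at hr
  exact ⟨r, hr⟩

end Cfsg.Agent.Lib.Suz8
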