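import Cfsg.Agent.Lib.Suz8.Derived
import Cfsg.Agent.Lib.Suz8.Field

/-! The kernels of stem extensions of the Suzuki group on sixty-five points. -/

set_option autoImplicit false

namespace Cfsg.Agent.Lib.Suz8

open Cfsg.Agent.Lib.Suz
open Matrix MulAction
open scoped commutatorElement

variable {F : Type*} [Field F] [Fintype F] [CharP F 2] (c : Ctx F 1)

include c

/-- The pairing between the centre of the root group and its quotient is one linear form killing `1`. -/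
theorem exists_form {Γ : Type*} [Group Γ] (σ : Γ →* ↥(Cfsg.Sz F 1))
    (hσ : Function.Surjective σ) (hc : σ.ker ≤ Subgroup.center Γ) :
    ∃ χ : Multiplicative F →* Γ, (∀ d, σ (χ d) = 1) ∧ χ (Multiplicative.ofAdd 1) = 1 ∧
      ∀ a b, ⁅Function.surjInv hσ (uG c a 0), Function.surjInv hσ (uG c 0 b)⁆ = χ (Multiplicative.ofAdd (a ^ 2 * b)) := by
  classical
  let u : F → F → Γ := fun a b => Function.surjInv hσ (uG c a b)
  have hu : ∀ a b, σ (u a b) = uG c a b := fun a b => Function.surjInv_eq hσ _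
  let tt : Fˣ → Γ := fun h => Function.surjInv hσ (tHom c h)
  have htt : ∀ h, σ (tt h) = tHom c h := fun h => Function.surjInv_eq hσ _
  have hcen : ∀ x, σ x = 1 → ∀ g, g * x = x * g := fun x hx => Subgroup.mem_center_iff.1 (hc hx)
  have hconj : ∀ h a b, σ (tt h * u a b * (tt h)⁻¹) =
      σ (u (th F 1 h * a) ((h : F) ^ 2 * th F 1 h * b)) := fun h a b => by
    rw [map_mul, map_mul, map_inv, htt, hu, hu, tHom_conj_uG]
  have hconj_comm : ∀ (g x y : Γ), ⁅g * x * g⁻¹, g * y * g⁻¹⁆ = g * ⁅x, y⁆ * g⁻¹ := fun g x y => by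
    simp only [commutatorElement_def]; group
  letI : CommGroup ↥(Subgroup.center Γ) :=
    { (inferInstance : Group ↥(Subgroup.center Γ)) with
      mul_comm := fun x y => Subtype.ext (Subgroup.mem_center_iff.1 y.2 x.1) }
  -- the preimage of the centre of `U` is abelian
  have h1 : ∀ b b', ⁅u 0 b, u 0 b'⁆ = 1 := by
    have hσ1 : ∀ b b', σ ⁅u 0 b, u 0 b'⁆ = 1 := fun b b' => by
      rw [map_commutatorElement, hu, hu, commutatorElement_eq_one_iff_mul_comm, uG_mul, uG_mul,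
        add_comm b b']
    let β : F → F → Subgroup.center Γ := fun b b' => ⟨⁅u 0 b, u 0 b'⁆, hc (hσ1 b b')⟩
    have hl : ∀ b1 b2 b', β (b1 + b2) b' = β b1 b' * β b2 b' := by
      intro b1 b2 b'
      apply Subtype.ext
      show ⁅u 0 (b1 + b2), u 0 b'⁆ = ⁅u 0 b1, u 0 b'⁆ * ⁅u 0 b2, u 0 b'⁆
      rw [comm_congr σ hc (x := u 0 (b1 + b2)) (x' := u 0 b1 * u 0 b2)
        (by rw [map_mul, hu, hu, hu, uG_mul]; simp) rfl, comm_mul_left, hcen _ (hσ1 b2 b'),
        mul_inv_cancel_right, hcen _ (hσ1 b2 b')]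
    have hr : ∀ b b1 b2, β b (b1 + b2) = β b b1 * β b b2 := by
      intro b b1 b2
      have e : ∀ p q, β q p = (β p q)⁻¹ := fun p q =>
        Subtype.ext (commutatorElement_inv (u 0 p) (u 0 q)).symm
      rw [e (b1 + b2) b, hl, _root_.mul_inv_rev, ← e b1 b, ← e b2 b]
      exact Subtype.ext (Subgroup.mem_center_iff.1 (β b b1).2 _)
    intro b b'
    have := pairing_linear_zero c hl hr (fun x p q hx => by
      obtain ⟨-, ⟨h, hh⟩, -⟩ := theta_units_surj c x hx
      apply Subtype.ext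
      show ⁅u 0 (x * p), u 0 (x * q)⁆ = ⁅u 0 p, u 0 q⁆
      have ep : σ (u 0 (x * p)) = σ (tt h * u 0 p * (tt h)⁻¹) := by rw [hconj, mul_zero, hh]
      have eq' : σ (u 0 (x * q)) = σ (tt h * u 0 q * (tt h)⁻¹) := by rw [hconj, mul_zero, hh]
      rw [comm_congr σ hc ep eq', hconj_comm, hcen _ (hσ1 p q), mul_inv_cancel_right]) b b'
    exact congrArg Subtype.val this
  have hσ2 : ∀ a b, σ ⁅u a 0, u 0 b⁆ = 1 := fun a b => by
    rw [map_commutatorElement, hu, hu, commutatorElement_eq_one_iff_mul_comm, uG_mul, uG_mul]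
    congr 1 <;> simp
  let β : F → F → Subgroup.center Γ := fun a b => ⟨⁅u a 0, u 0 b⁆, hc (hσ2 a b)⟩
  have hr : ∀ a b b', β a (b + b') = β a b * β a b' := by
    intro a b b'
    apply Subtype.ext
    show ⁅u a 0, u 0 (b + b')⁆ = ⁅u a 0, u 0 b⁆ * ⁅u a 0, u 0 b'⁆
    rw [comm_congr σ hc (y := u 0 (b + b')) (y' := u 0 b * u 0 b') rfl
      (by rw [map_mul, hu, hu, hu, uG_mul]; simp), comm_mul_right, hcen _ (hσ2 a b'),
      mul_inv_cancel_right]
  have hl : ∀ a a' b, β (a + a') b = β a b * β a' b := by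
    intro a a' b
    apply Subtype.ext
    show ⁅u (a + a') 0, u 0 b⁆ = ⁅u a 0, u 0 b⁆ * ⁅u a' 0, u 0 b⁆
    rw [comm_congr σ hc (x := u (a + a') 0) (x' := u a 0 * u a' 0 * u 0 (a' * th F 1 a)) (by
        rw [map_mul, map_mul, hu, hu, hu, hu, uG_mul, uG_mul]
        simp [add_self0]) rfl,
      comm_mul_left, h1, mul_one, mul_inv_cancel, one_mul, comm_mul_left, hcen _ (hσ2 a' b),
      mul_inv_cancel_right, hcen _ (hσ2 a' b)]
  have hinv : ∀ x p q, x ≠ 0 → β (x * p) (x * th F 1 x * q) = β p q := by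
    intro x p q hx
    obtain ⟨⟨h, hh⟩, -, -⟩ := theta_units_surj c x hx
    apply Subtype.ext
    show ⁅u (x * p) 0, u 0 (x * th F 1 x * q)⁆ = ⁅u p 0, u 0 q⁆
    have hx2 : (h : F) ^ 2 * th F 1 h = x * th F 1 x := by rw [← c.tits (h : F), hh, mul_comm]
    have ep : σ (u (x * p) 0) = σ (tt h * u p 0 * (tt h)⁻¹) := by rw [hconj, mul_zero, hh]
    have eq' : σ (u 0 (x * th F 1 x * q)) = σ (tt h * u 0 q * (tt h)⁻¹) := by
      rw [hconj, mul_zero, hx2]
    rw [comm_congr σ hc ep eq', hconj_comm, hcen _ (hσ2 p q), mul_inv_cancel_right]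
  have hform : ∀ a b, β a b = β 1 (a ^ 2 * b) := by
    intro a b
    rcases eq_or_ne a 0 with rfl | ha
    · have e := hl 0 0 b
      rw [add_zero, eq_comm, mul_eq_left] at e
      have e' := hr 1 (0 : F) 0
      rw [add_zero, eq_comm, mul_eq_left] at e'
      rw [e, show (0 : F) ^ 2 * b = 0 by ring, e']
    · have := hinv a 1 (a ^ 2 * b) ha
      rw [mul_one, th_eq c, show a * a ^ 4 * (a ^ 2 * b) = a ^ 7 * b by ring, pow_seven c ha, one_mul] at this
      exact this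
  let χ : Multiplicative F →* Γ :=
    { toFun := fun d => (β 1 d.toAdd : Γ)
      map_one' := by
        have e' := hr 1 (0 : F) 0
        rw [add_zero, eq_comm, mul_eq_left] at e'
        rw [toAdd_one, e']; rfl
      map_mul' := fun x y => by rw [toAdd_mul, hr, Subgroup.coe_mul] }
  have hβχ : ∀ a b, ⁅u a 0, u 0 b⁆ = χ (Multiplicative.ofAdd (a ^ 2 * b)) := fun a b =>
    congrArg Subtype.val (hform a b)
  refine ⟨χ, fun d => hσ2 1 d.toAdd, ?_, hβχ⟩
  -- the relation from conjugating a commutator of root elements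
  let sC : F → F → F := fun a b => b * th F 1 a + a * th F 1 b
  have hσZ : ∀ a b, σ ⁅u a 0, u b 0⁆ = uG c 0 (sC a b) := by
    intro a b
    rw [map_commutatorElement, hu, hu, commutatorElement_def, uG_inv, uG_inv, uG_mul, uG_mul, uG_mul]
    congr 1
    · linear_combination (a + b) * two0 (F := F)
    · simp only [sC, map_add]
      linear_combination (a * th F 1 a + b * th F 1 b + b * th F 1 a) * two0 (F := F)
  have hC : ∀ v w b b', σ v = uG c 0 b → σ w = uG c 0 b' → ⁅v, w⁆ = 1 := fun v w b b' hv hw => by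
    rw [comm_congr σ hc (x' := u 0 b) (y' := u 0 b') (by rw [hv, hu]) (by rw [hw, hu])]; exact h1 b b'
  have hA : ∀ v a b, σ v = uG c 0 b → ⁅u a 0, v⁆ = χ (Multiplicative.ofAdd (a ^ 2 * b)) := fun v a b hv => by
    rw [comm_congr σ hc (x' := u a 0) (y' := u 0 b) rfl (by rw [hv, hu])]; exact hβχ a b
  obtain ⟨r, hr0, hr1⟩ := exists_gen c
  have hχc : ∀ d g, g * χ d = χ d * g := fun d => hcen _ (hσ2 1 d.toAdd)
  have key : ∀ a b e : F, χ (Multiplicative.ofAdd (e ^ 2 * sC a b)) =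
      χ (Multiplicative.ofAdd (a ^ 2 * sC e b)) * (χ (Multiplicative.ofAdd (b ^ 2 * sC e a)))⁻¹ := by
    intro a b e
    set x := u a 0
    set y := u b 0
    set g := u e 0
    set Z := ⁅x, y⁆ with hZdef
    set v := ⁅g, x⁆ with hvdef
    set w := ⁅g, y⁆ with hwdef
    have e1 : g * Z * g⁻¹ = χ (Multiplicative.ofAdd (e ^ 2 * sC a b)) * Z := by
      rw [← hA Z e _ (hσZ a b), commutatorElement_def g Z]; group
    have e2 : g * Z * g⁻¹ = ⁅v * x, w * y⁆ := by
      rw [hZdef, hvdef, hwdef]; simp only [commutatorElement_def]; group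
    have hvw : ⁅v, w⁆ = 1 := hC v w _ _ (hσZ e a) (hσZ e b)
    have hvy : ⁅v, y⁆ = (χ (Multiplicative.ofAdd (b ^ 2 * sC e a)))⁻¹ := by
      rw [← commutatorElement_inv, hA v b _ (hσZ e a)]
    have hxw : ⁅x, w⁆ = χ (Multiplicative.ofAdd (a ^ 2 * sC e b)) := hA w a _ (hσZ e b)
    have hwZ : w * Z * w⁻¹ = Z := by
      rw [commutatorElement_eq_one_iff_mul_comm.1 (hC w Z _ _ (hσZ e b) (hσZ a b)), mul_inv_cancel_right]
    have hvZ : v * Z * v⁻¹ = Z := by
      rw [commutatorElement_eq_one_iff_mul_comm.1 (hC v Z _ _ (hσZ e a) (hσZ a b)), mul_inv_cancel_right]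
    set A1 := χ (Multiplicative.ofAdd (a ^ 2 * sC e b))
    set B1 := χ (Multiplicative.ofAdd (b ^ 2 * sC e a))
    have e3 : ⁅v * x, w * y⁆ = A1 * Z * B1⁻¹ := by
      rw [comm_mul_left, comm_mul_right, hwZ, hxw, comm_mul_right, hvw, one_mul, hvy,
        show w * B1⁻¹ * w⁻¹ = B1⁻¹ by
          rw [← map_inv, hχc, mul_inv_cancel_right],
        show v * (A1 * Z) * v⁻¹ = v * A1 * v⁻¹ * (v * Z * v⁻¹) by group, hvZ, hχc, mul_inv_cancel_right]
    rw [e1] at e2
    rw [e3, mul_assoc, show Z * B1⁻¹ = B1⁻¹ * Z by rw [← map_inv]; exact hχc _ Z, ← mul_assoc] at e2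
    exact mul_right_cancel e2
  have h2' : (2 : F) = 0 := two0
  have h7 := pow_seven c hr0
  have hsum : r ^ 6 + r ^ 5 + r ^ 4 + r ^ 3 + r ^ 2 + r + 1 = 0 := by
    have : (r - 1) * (r ^ 6 + r ^ 5 + r ^ 4 + r ^ 3 + r ^ 2 + r + 1) = 0 := by linear_combination h7
    exact (mul_eq_zero.1 this).resolve_left (sub_ne_zero.2 hr1)
  have hk := key 1 r (r ^ 2)
  rw [← map_inv, ← map_mul, ← ofAdd_neg, ← ofAdd_add] at hk
  have h0 : χ (Multiplicative.ofAdd ((r ^ 2) ^ 2 * sC 1 r + (1 ^ 2 * sC (r ^ 2) r + -(r ^ 2 * sC (r ^ 2) 1)))) = 1 := by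
    rw [ofAdd_add, map_mul, hk, ← map_mul, ← ofAdd_add, show (1 ^ 2 * sC (r ^ 2) r + -(r ^ 2 * sC (r ^ 2) 1)) +
      (1 ^ 2 * sC (r ^ 2) r + -(r ^ 2 * sC (r ^ 2) 1)) = (0 : F) from add_self0 _, ofAdd_zero, map_one]
  have hone : (r ^ 2) ^ 2 * sC 1 r + (1 ^ 2 * sC (r ^ 2) r + -(r ^ 2 * sC (r ^ 2) 1)) = 1 := by
    simp only [sC, th_eq c]
    linear_combination hsum + (r ^ 2 + r - r ^ 3) * h7 - (r ^ 3 + r ^ 4 + 1) * h2'
  rwa [hone] at h0

/-- Every kernel element in the derived subgroup of a Sylow preimage is a value of the form. -/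
theorem derived_le_form {Γ : Type*} [Group Γ] (σ : Γ →* ↥(Cfsg.Sz F 1))
    (hσ : Function.Surjective σ) (hc : σ.ker ≤ Subgroup.center Γ) :
    ∃ χ : Multiplicative F →* Γ, (∀ d, σ (χ d) = 1) ∧ χ (Multiplicative.ofAdd 1) = 1 ∧
      ∀ z, σ z = 1 → z ∈ ⁅(uSub c).comap σ, (uSub c).comap σ⁆ → z ∈ χ.range := by
  obtain ⟨χ, hχσ, hχ1, hχ⟩ := exists_form c σ hσ hc
  refine ⟨χ, hχσ, hχ1, fun z hz hzd => ?_⟩
  have hKc : χ.range ≤ Subgroup.center Γ := by rintro _ ⟨d, rfl⟩; exact hc (hχσ d)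
  haveI : χ.range.Normal := ⟨fun n hn g => by
    rwa [Subgroup.mem_center_iff.1 (hKc hn) g, mul_inv_cancel_right]⟩
  let q := QuotientGroup.mk' χ.range
  let σ' : Γ ⧸ χ.range →* ↥(Cfsg.Sz F 1) := QuotientGroup.lift χ.range σ (by
    rintro _ ⟨d, rfl⟩; exact hχσ d)
  have hσ'q : ∀ x, σ' (q x) = σ x := fun x => rfl
  have hσ' : Function.Surjective σ' := fun y => by
    obtain ⟨x, rfl⟩ := hσ y; exact ⟨q x, rfl⟩
  have hc' : σ'.ker ≤ Subgroup.center (Γ ⧸ χ.range) := by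
    intro y hy
    obtain ⟨x, rfl⟩ := QuotientGroup.mk'_surjective _ y
    rw [Subgroup.mem_center_iff]
    intro w
    obtain ⟨x', rfl⟩ := QuotientGroup.mk'_surjective _ w
    rw [← map_mul, ← map_mul, Subgroup.mem_center_iff.1 (hc hy) x']
  have h2 : ∀ a b, ⁅Function.surjInv hσ' (uG c a 0), Function.surjInv hσ' (uG c 0 b)⁆ = 1 := by
    intro a b
    rw [comm_congr σ' hc' (x' := q (Function.surjInv hσ (uG c a 0))) (y' := q (Function.surjInv hσ (uG c 0 b)))
      (by rw [Function.surjInv_eq hσ', hσ'q, Function.surjInv_eq hσ])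
      (by rw [Function.surjInv_eq hσ', hσ'q, Function.surjInv_eq hσ]), ← map_commutatorElement, hχ]
    exact (QuotientGroup.eq_one_iff _).2 ⟨_, rfl⟩
  have hmem : q z ∈ ⁅(uSub c).comap σ', (uSub c).comap σ'⁆ := by
    have h := Subgroup.mem_map_of_mem q hzd
    rw [Subgroup.map_commutator] at h
    refine Subgroup.commutator_mono ?_ ?_ h <;>
    · rintro _ ⟨x, hx, rfl⟩
      exact hx
  exact (QuotientGroup.eq_one_iff _).1 (derived_meets_ker_of_comm c σ' hσ' hc' h2 hz hmem)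

/-- The kernel of a stem extension is a quotient of a four-group. -/
theorem kernel_image {Γ : Type*} [Group Γ] [Finite Γ] (σ : Γ →* ↥(Cfsg.Sz F 1))
    (hs : Cfsg.IsStemExtension σ) :
    ∃ π : Multiplicative (ZMod 2 × ZMod 2) →* σ.ker, Function.Surjective π := by
  classical
  obtain ⟨hσ, hcen, hcom⟩ := hs
  obtain ⟨χ, hχσ, hχ1, hχ⟩ := derived_le_form c σ hσ hcen
  have hker : ∀ z ∈ σ.ker, z ∈ χ.range := by
    intro z hz
    have h2 : ∀ p : ℕ, p.Prime → p ∣ orderOf z → p = 2 := by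
      intro p hp hpd
      by_contra hp2
      haveI : Fact p.Prime := ⟨hp⟩
      obtain ⟨P⟩ : Nonempty (Sylow p ↥(Cfsg.Sz F 1)) := inferInstance
      haveI := cyclic_sylow_odd c hp2 P
      set H := (P : Subgroup ↥(Cfsg.Sz F 1)).comap σ
      let f : ↥H →* ↥(P : Subgroup ↥(Cfsg.Sz F 1)) := σ.subgroupComap _
      have hk : f.ker ≤ Subgroup.center ↥H := fun x hx => Subgroup.mem_center_iff.2 fun y =>
        Subtype.ext (Subgroup.mem_center_iff.1 (hcen (congrArg Subtype.val hx)) y)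
      have hb : ⁅H, H⁆ = ⊥ := by
        rw [Subgroup.commutator_eq_bot_iff_le_centralizer]
        exact fun x hx y hy => (congrArg Subtype.val
          (commutative_of_cyclic_center_quotient f hk ⟨x, hx⟩ ⟨y, hy⟩)).symm
      have hidx : H.index = (P : Subgroup ↥(Cfsg.Sz F 1)).index :=
        Subgroup.index_comap_of_surjective _ hσ
      have hmem := pow_index_mem_commutator H (hcen hz) (hcom hz)
      rw [hb, Subgroup.mem_bot, ← orderOf_dvd_iff_pow_eq_one, hidx] at hmem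
      exact P.not_dvd_index (hpd.trans hmem)
    obtain ⟨P, hP⟩ := exists_sylow c
    set H := (uSub c).comap σ
    have hidx : H.index = (P : Subgroup ↥(Cfsg.Sz F 1)).index := by
      rw [Subgroup.index_comap_of_surjective _ hσ, hP]
    have hmem := hχ _ (by rw [map_pow, MonoidHom.mem_ker.1 hz, one_pow])
      (pow_index_mem_commutator H (hcen hz) (hcom hz))
    haveI : Fact (Nat.Prime 2) := ⟨Nat.prime_two⟩
    have hco : Nat.Coprime (orderOf z) H.index := by
      refine Nat.coprime_of_dvd fun p hp hd hd' => P.not_dvd_index ?_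
      rw [← hidx]
      rwa [h2 p hp hd] at hd'
    obtain ⟨k, hk⟩ := exists_pow_eq_self_of_coprime (n := H.index) hco.symm
    rw [← hk]
    exact Subgroup.pow_mem _ hmem k
  obtain ⟨r, hr0, hr1⟩ := exists_gen c
  let L : ZMod 2 × ZMod 2 →+ F := (coords r).comp (AddMonoidHom.inr _ _)
  let π : Multiplicative (ZMod 2 × ZMod 2) →* σ.ker :=
    (χ.comp (AddMonoidHom.toMultiplicative L)).codRestrict σ.ker fun e => hχσ _
  refine ⟨π, fun z => ?_⟩
  obtain ⟨d, hd⟩ := hker z.1 z.2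
  obtain ⟨⟨e0, e⟩, he⟩ := (coords_bijective c hr0 hr1).2 d.toAdd
  refine ⟨Multiplicative.ofAdd e, Subtype.ext ?_⟩
  show χ (Multiplicative.ofAdd (coords r (0, e))) = z.1
  rw [← hd, ← ofAdd_toAdd d, ← he, show ((e0, e) : ZMod 2 × ZMod 2 × ZMod 2) = (e0, 0) + (0, e) by simp,
    map_add, ofAdd_add, map_mul]
  rcases ((by decide : ∀ x : ZMod 2, x = 0 ∨ x = 1) e0) with rfl | rfl
  · simp [coords]
  · rw [show coords r ((1 : ZMod 2), (0 : ZMod 2 × ZMod 2)) = 1 by simp [coords], hχ1, one_mul]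

end Cfsg.Agent.Lib.Suz8
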