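import Cfsg.Agent.Lib.Suz8.Transfer
import Cfsg.Agent.Lib.Suz8.Field

/-! A central extension of the Suzuki group on sixty-five points by a four-group. -/

set_option autoImplicit false

namespace Cfsg.Agent.Lib.Suz8

open Cfsg.Agent.Lib.Suz

universe u

variable {F : Type u} [Field F] [Fintype F] [CharP F 2] (c : Ctx F 1)

/-- The map killing the prime field. -/
def psi (F : Type*) [Field F] [CharP F 2] : F →+ F where
  toFun x := x + x ^ 2
  map_zero' := by simp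
  map_add' x y := by rw [CharTwo.add_sq]; ring

/-- The cocycle in coordinates. -/
def poly (X Y : F × F) : F := Y.1 ^ 2 * X.2 + X.1 ^ 2 * Y.1 ^ 5 + X.1 ^ 3 * Y.1 ^ 4

include c in
theorem poly_cocycle (X Y Z : F × F) :
    psi F (poly X Y) + psi F (poly (X.1 + Y.1, X.2 + Y.2 + Y.1 * th F 1 X.1) Z) =
      psi F (poly Y Z) + psi F (poly X (Y.1 + Z.1, Y.2 + Z.2 + Z.1 * th F 1 Y.1)) := by
  obtain ⟨a, b⟩ := X
  obtain ⟨x, y⟩ := Y
  obtain ⟨p, q⟩ := Z
  have h2 : (2 : F) = 0 := two0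
  have hP : psi F (a ^ 4 * x * p ^ 2 + a ^ 2 * x ^ 4 * p + a * x ^ 2 * p ^ 4) = 0 := by
    show _ + _ = (0 : F)
    rw [CharTwo.add_sq, CharTwo.add_sq]
    simp only [mul_pow, ← pow_mul, show (4 : ℕ) * 2 = 8 from rfl, show (2 : ℕ) * 2 = 4 from rfl,
      pow_eight c]
    linear_combination (a ^ 4 * x * p ^ 2 + a ^ 2 * x ^ 4 * p + a * x ^ 2 * p ^ 4) * h2
  have e : poly (a, b) (x, y) + poly (a + x, b + y + x * th F 1 a) (p, q) =
      poly (x, y) (p, q) + poly (a, b) (x + p, y + q + p * th F 1 x) +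
        (a ^ 4 * x * p ^ 2 + a ^ 2 * x ^ 4 * p + a * x ^ 2 * p ^ 4) := by
    simp only [poly, th_eq c]
    linear_combination (a * x * p ^ 5 - a ^ 2 * x * p ^ 4 + a * x ^ 2 * p ^ 4 - b * x * p
      - 3 * a ^ 2 * x ^ 4 * p - 5 * a ^ 2 * x ^ 3 * p ^ 2 - 5 * a ^ 2 * x ^ 2 * p ^ 3
      - 2 * a ^ 3 * x ^ 3 * p - 3 * a ^ 3 * x ^ 2 * p ^ 2 - 2 * a ^ 3 * x * p ^ 3) * h2
  show psi F (poly (a, b) (x, y)) + psi F (poly (a + x, b + y + x * th F 1 a) (p, q)) =
    psi F (poly (x, y) (p, q)) + psi F (poly (a, b) (x + p, y + q + p * th F 1 x))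
  rw [← map_add, e, map_add, map_add, hP, add_zero]

/-- Coordinates on the root group. -/
noncomputable def uCoord : ↥(uSub c) ≃ F × F :=
  (Equiv.ofBijective (fun p : F × F => (⟨uG c p.1 p.2, uG_mem_uSub c _ _⟩ : ↥(uSub c)))
    ⟨fun p q h => Prod.ext (uG_inj c (congrArg Subtype.val h)).1 (uG_inj c (congrArg Subtype.val h)).2,
      fun ⟨g, a, b, hg⟩ => ⟨(a, b), Subtype.ext hg.symm⟩⟩).symm

theorem uCoord_eq {g : ↥(uSub c)} {a b : F} (h : (g : ↥(Cfsg.Sz F 1)) = uG c a b) :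
    uCoord c g = (a, b) := by
  refine (Equiv.apply_eq_iff_eq_symm_apply _).2 (Subtype.ext ?_)
  rw [h]; rfl

theorem uCoord_mul (g h : ↥(uSub c)) : uCoord c (g * h) =
    ((uCoord c g).1 + (uCoord c h).1,
      (uCoord c g).2 + (uCoord c h).2 + (uCoord c h).1 * th F 1 (uCoord c g).1) := by
  obtain ⟨a, b, hg⟩ := g.2
  obtain ⟨a', b', hh⟩ := h.2
  rw [uCoord_eq c hg, uCoord_eq c hh]
  exact uCoord_eq c (by rw [Subgroup.coe_mul, hg, hh, uG_mul])

/-- The coefficient group. -/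
abbrev Coef (F : Type*) [Field F] [CharP F 2] := ↥(psi F).range

/-- The cocycle on the root group. -/
noncomputable def cocU (g h : ↥(uSub c)) : Coef F :=
  (psi F).rangeRestrict (poly (uCoord c g) (uCoord c h))

theorem cocU_cocycle (x y z : ↥(uSub c)) :
    cocU c x y + cocU c (x * y) z = cocU c y z + cocU c x (y * z) := by
  refine Subtype.ext ?_
  show psi F _ + psi F _ = psi F _ + psi F _
  rw [uCoord_mul, uCoord_mul]
  exact poly_cocycle c _ _ _

/-- The indices of the cosets of the root group. -/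
abbrev Idx (F : Type*) [Field F] := Fˣ ⊕ (F × F × Fˣ)

/-- The chosen representative. -/
def repI : Idx F → ↥(Cfsg.Sz F 1) :=
  Sum.elim (fun h => tHom c h) (fun p => uG c p.1 p.2.1 * (wG c * tHom c p.2.2))

/-- The coset of an index. -/
def cosI (i : Idx F) : ↥(Cfsg.Sz F 1) ⧸ uSub c := QuotientGroup.mk (repI c i)

theorem conj_t_mem (h : Fˣ) {g : ↥(Cfsg.Sz F 1)} (hg : g ∈ uSub c) :
    (tHom c h)⁻¹ * g * tHom c h ∈ uSub c := by
  obtain ⟨a, b, rfl⟩ := hg
  rw [← map_inv, show tHom c h⁻¹ * uG c a b * tHom c h = tHom c h⁻¹ * uG c a b * (tHom c h⁻¹)⁻¹ by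
    rw [← map_inv, inv_inv], tHom_conj_uG]
  exact uG_mem_uSub c _ _

theorem cosI_bijective : Function.Bijective (cosI c) := by
  classical
  haveI : Fintype (↥(Cfsg.Sz F 1) ⧸ uSub c) := Fintype.ofFinite _
  refine (Fintype.bijective_iff_surjective_and_card _).2 ⟨fun p => ?_, ?_⟩
  · obtain ⟨g, rfl⟩ := QuotientGroup.mk_surjective p
    rcases exists_bruhat c g with ⟨a, b, h, rfl⟩ | ⟨a, b, a', b', h, rfl⟩
    · refine ⟨Sum.inl h, QuotientGroup.eq.2 ?_⟩
      show (tHom c h)⁻¹ * (uG c a b * tHom c h) ∈ uSub c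
      rw [← mul_assoc]
      exact conj_t_mem c h (uG_mem_uSub c a b)
    · refine ⟨Sum.inr (a, b, h), QuotientGroup.eq.2 ?_⟩
      show (uG c a b * (wG c * tHom c h))⁻¹ * (uG c a b * wG c * (uG c a' b' * tHom c h)) ∈ uSub c
      have := conj_t_mem c h (uG_mem_uSub c a' b')
      convert this using 1
      group
  · have hm := Subgroup.card_mul_index (uSub c)
    rw [card_uSub c, card_sz c, card_eight c] at hm
    rw [← Nat.card_eq_fintype_card (α := ↥(Cfsg.Sz F 1) ⧸ uSub c), ← Subgroup.index_eq_card,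
      Fintype.card_sum, Fintype.card_prod, Fintype.card_prod, Fintype.card_units, card_eight c]
    omega

/-- Representatives. -/
noncomputable def repQ (p : ↥(Cfsg.Sz F 1) ⧸ uSub c) : ↥(Cfsg.Sz F 1) :=
  repI c ((Equiv.ofBijective _ (cosI_bijective c)).symm p)

theorem repQ_spec (p : ↥(Cfsg.Sz F 1) ⧸ uSub c) : (QuotientGroup.mk (repQ c p) : _ ⧸ uSub c) = p :=
  (Equiv.ofBijective _ (cosI_bijective c)).apply_symm_apply p

theorem repQ_cosI (i : Idx F) : repQ c (cosI c i) = repI c i := by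
  rw [repQ]
  exact congrArg _ ((Equiv.ofBijective _ (cosI_bijective c)).symm_apply_apply i)

variable [Fintype (↥(Cfsg.Sz F 1) ⧸ uSub c)]

/-- The cocycle on the whole group. -/
noncomputable def coc (g h : ↥(Cfsg.Sz F 1)) : Coef F :=
  cores (uSub c) (repQ c) (repQ_spec c) (cocU c) g h

theorem coc_cocycle (g h l : ↥(Cfsg.Sz F 1)) :
    coc c g h + coc c (g * h) l = coc c h l + coc c g (h * l) :=
  cores_cocycle _ _ _ _ (cocU_cocycle c) g h l

theorem smul_inl {x : ↥(Cfsg.Sz F 1)} (hx : x ∈ uSub c) (h : Fˣ) :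
    x • cosI c (Sum.inl h) = cosI c (Sum.inl h) := by
  show (QuotientGroup.mk (x * tHom c h) : _ ⧸ uSub c) = QuotientGroup.mk (tHom c h)
  rw [QuotientGroup.eq]
  have := Subgroup.inv_mem _ (conj_t_mem c h hx)
  convert this using 1
  group

theorem smul_inr (a b : F) (p : F × F × Fˣ) :
    uG c a b • cosI c (Sum.inr p) =
      cosI c (Sum.inr (a + p.1, b + p.2.1 + p.1 * th F 1 a, p.2.2)) := by
  show (QuotientGroup.mk (uG c a b * (uG c p.1 p.2.1 * (wG c * tHom c p.2.2))) : _ ⧸ uSub c) =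
    QuotientGroup.mk (uG c (a + p.1) (b + p.2.1 + p.1 * th F 1 a) * (wG c * tHom c p.2.2))
  rw [← mul_assoc, uG_mul]

theorem schreier_inr (a b : F) (p : F × F × Fˣ) :
    uCoord c (schreier (uSub c) (repQ c) (repQ_spec c) (uG c a b) (cosI c (Sum.inr p))) = (0, 0) := by
  refine uCoord_eq c ?_
  show (repQ c (uG c a b • cosI c (Sum.inr p)))⁻¹ * uG c a b * repQ c (cosI c (Sum.inr p)) = _
  rw [smul_inr, repQ_cosI, repQ_cosI, uG_zero]
  show (uG c _ _ * (wG c * tHom c p.2.2))⁻¹ * uG c a b * (uG c p.1 p.2.1 * (wG c * tHom c p.2.2)) = 1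
  rw [mul_assoc, ← mul_assoc (uG c a b), uG_mul, inv_mul_cancel]

theorem schreier_inl (a b : F) (h : Fˣ) :
    uCoord c (schreier (uSub c) (repQ c) (repQ_spec c) (uG c a b) (cosI c (Sum.inl h))) =
      (th F 1 (h⁻¹ : Fˣ) * a, ((h⁻¹ : Fˣ) : F) ^ 2 * th F 1 (h⁻¹ : Fˣ) * b) := by
  refine uCoord_eq c ?_
  show (repQ c (uG c a b • cosI c (Sum.inl h)))⁻¹ * uG c a b * repQ c (cosI c (Sum.inl h)) = _
  rw [smul_inl c (uG_mem_uSub c a b), repQ_cosI]
  show (tHom c h)⁻¹ * uG c a b * tHom c h = _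
  rw [← tHom_conj_uG, map_inv, inv_inv]

theorem coc_sub (a b : F) :
    coc c (uG c a 0) (uG c 0 b) - coc c (uG c 0 b) (uG c a 0) = (psi F).rangeRestrict (a ^ 2 * b) := by
  classical
  set e := Equiv.ofBijective _ (cosI_bijective c)
  refine Subtype.ext ?_
  show ((coc c (uG c a 0) (uG c 0 b) - coc c (uG c 0 b) (uG c a 0) : Coef F) : F) = psi F (a ^ 2 * b)
  simp only [coc, cores, ← Finset.sum_sub_distrib, AddSubgroupClass.coe_sub, AddSubmonoidClass.coe_finset_sum]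
  rw [← e.sum_comp, Fintype.sum_sum_type]
  simp only [e, Equiv.ofBijective_apply, smul_inr, smul_inl c (uG_mem_uSub c _ _), cocU,
    AddMonoidHom.coe_rangeRestrict, schreier_inr, schreier_inl]
  have hz : psi F (poly ((0 : F), (0 : F)) (0, 0)) = 0 := by simp [poly]
  simp only [hz, sub_self, Finset.sum_const_zero, add_zero]
  have hterm : ∀ h : Fˣ,
      psi F (poly (th F 1 (h⁻¹ : Fˣ) * a, ((h⁻¹ : Fˣ) : F) ^ 2 * th F 1 (h⁻¹ : Fˣ) * 0)
          (th F 1 (h⁻¹ : Fˣ) * 0, ((h⁻¹ : Fˣ) : F) ^ 2 * th F 1 (h⁻¹ : Fˣ) * b)) -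
        psi F (poly (th F 1 (h⁻¹ : Fˣ) * 0, ((h⁻¹ : Fˣ) : F) ^ 2 * th F 1 (h⁻¹ : Fˣ) * b)
          (th F 1 (h⁻¹ : Fˣ) * a, ((h⁻¹ : Fˣ) : F) ^ 2 * th F 1 (h⁻¹ : Fˣ) * 0)) = psi F (a ^ 2 * b) := by
    intro h
    rw [← map_sub]
    congr 1
    simp only [poly, th_eq c, mul_zero, CharTwo.sub_eq_add]
    have h7 := pow_seven c (Units.ne_zero h⁻¹)
    linear_combination a ^ 2 * b * ((((h⁻¹ : Fˣ) : F)) ^ 7 + 1) * h7
  rw [Finset.sum_congr rfl fun h _ => hterm h, Finset.sum_const, Finset.card_univ, Fintype.card_units,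
    card_eight c]
  show (7 : ℕ) • psi F (a ^ 2 * b) = psi F (a ^ 2 * b)
  rw [succ_nsmul, show (6 : ℕ) = 2 * 3 from rfl, mul_nsmul', two_nsmul, add_self0, zero_add]

include c in
omit [Fintype (↥(Cfsg.Sz F 1) ⧸ uSub c)] in
theorem coef_equiv : Nonempty (Coef F ≃+ ZMod 2 × ZMod 2) := by
  obtain ⟨r, hr0, hr1⟩ := exists_gen c
  have hb := coords_bijective c hr0 hr1
  let L : ZMod 2 × ZMod 2 →+ Coef F :=
    (psi F).rangeRestrict.comp ((coords r).comp (AddMonoidHom.inr _ _))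
  refine ⟨(AddEquiv.ofBijective L ⟨(injective_iff_map_eq_zero L).2 fun e he => ?_, fun y => ?_⟩).symm⟩
  · have h0 : psi F (coords r (0, e)) = 0 := congrArg Subtype.val he
    set x := coords r (0, e) with hx
    have hz : x * (1 + x) = 0 := by
      rw [mul_add, mul_one, ← sq]; exact h0
    rcases mul_eq_zero.1 hz with h | h
    · have := hb.1 (a₁ := (0, e)) (a₂ := 0) (by rw [map_zero]; exact h)
      exact congrArg Prod.snd this
    · have h' : x = coords r (1, 0) := by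
        have : coords r ((1 : ZMod 2), (0 : ZMod 2 × ZMod 2)) = (1 : F) := by simp [coords]
        rw [this, CharTwo.add_eq_zero.1 h]
      exact absurd (congrArg Prod.fst (hb.1 h')) (by simp)
  · obtain ⟨x, hx⟩ := (psi F).rangeRestrict_surjective y
    obtain ⟨⟨e0, e⟩, rfl⟩ := hb.2 x
    refine ⟨e, ?_⟩
    rw [← hx]
    refine Subtype.ext ?_
    show psi F (coords r (0, e)) = psi F (coords r (e0, e))
    rw [show ((e0, e) : ZMod 2 × ZMod 2 × ZMod 2) = (e0, 0) + (0, e) by simp, map_add, map_add]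
    rcases ((by decide : ∀ x : ZMod 2, x = 0 ∨ x = 1) e0) with rfl | rfl <;>
      simp [coords, psi, add_self0]

include c in
omit [Fintype (↥(Cfsg.Sz F 1) ⧸ uSub c)] in
/-- The extension is a stem extension with kernel a four-group. -/
theorem exists_cover : ∃ (Γ : Type u) (_ : Group Γ) (_ : Finite Γ) (σ : Γ →* ↥(Cfsg.Sz F 1)),
    Cfsg.IsStemExtension σ ∧ Nonempty (σ.ker ≃* Multiplicative (ZMod 2 × ZMod 2)) := by
  haveI : Fintype (↥(Cfsg.Sz F 1) ⧸ uSub c) := Fintype.ofFinite _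
  let hc := coc_cocycle c
  refine ⟨Tw (coc c) hc, inferInstance, inferInstance, twProj (coc c) hc,
    ⟨twProj_surjective, twProj_ker_center, fun z hz => ?_⟩,
    ⟨(kerEquiv (coc c) hc).symm.trans (AddEquiv.toMultiplicative (coef_equiv c).some)⟩⟩
  obtain ⟨k, hk⟩ := (kerEquiv (coc c) hc).surjective ⟨z, hz⟩
  obtain ⟨x, hx⟩ := (psi F).rangeRestrict_surjective k.toAdd
  have hcomm : uG c 1 0 * uG c 0 x = uG c 0 x * uG c 1 0 := by
    rw [uG_mul, uG_mul]; simp
  have h := mem_commutator_of_commute (hc := hc) hcomm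
  rw [coc_sub, one_pow, one_mul, hx, ofAdd_toAdd, hk] at h
  exact h

end Cfsg.Agent.Lib.Suz8
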