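import Cfsg.Agent.Lib.Suz.Mult

/-! The derived subgroup of the preimage of a Sylow subgroup, when root elements commute in the cover. -/

set_option autoImplicit false

namespace Cfsg.Agent.Lib.Suz8

open Cfsg.Agent.Lib.Suz
open Matrix MulAction
open scoped commutatorElement

variable {F : Type*} [Field F] [Fintype F] [CharP F 2] {m : ℕ} (c : Ctx F m)

include c

theorem derived_meets_ker_of_comm {Γ : Type*} [Group Γ] (σ : Γ →* ↥(Cfsg.Sz F m))
    (hσ : Function.Surjective σ) (hc : σ.ker ≤ Subgroup.center Γ)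
    (h2 : ∀ a b, ⁅Function.surjInv hσ (uG c a 0), Function.surjInv hσ (uG c 0 b)⁆ = 1) {z : Γ} (hz : σ z = 1)
    (hzd : z ∈ ⁅(uSub c).comap σ, (uSub c).comap σ⁆) : z = 1 := by
  classical
  let u : F → F → Γ := fun a b => Function.surjInv hσ (uG c a b)
  have hu : ∀ a b, σ (u a b) = uG c a b := fun a b => Function.surjInv_eq hσ _
  let tt : Fˣ → Γ := fun h => Function.surjInv hσ (tHom c h)
  have htt : ∀ h, σ (tt h) = tHom c h := fun h => Function.surjInv_eq hσ _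
  have hcen : ∀ x, σ x = 1 → ∀ g, g * x = x * g := fun x hx => Subgroup.mem_center_iff.1 (hc hx)
  have hconj : ∀ h a b, σ (tt h * u a b * (tt h)⁻¹) =
      σ (u (th F m h * a) ((h : F) ^ 2 * th F m h * b)) := fun h a b => by
    rw [map_mul, map_mul, map_inv, htt, hu, hu, tHom_conj_uG]
  have hconj_comm : ∀ (g x y : Γ), ⁅g * x * g⁻¹, g * y * g⁻¹⁆ = g * ⁅x, y⁆ * g⁻¹ := fun g x y => by
    simp only [commutatorElement_def]; group
  letI : CommGroup ↥(Subgroup.center Γ) :=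
    { (inferInstance : Group ↥(Subgroup.center Γ)) with
      mul_comm := fun x y => Subtype.ext (Subgroup.mem_center_iff.1 y.2 x.1) }
  -- the preimage of the centre of `U` is abelian
  have h1 : ∀ b b', ⁅u 0 b, u 0 b'⁆ = 1 := by
    have hσ1 : ∀ b b', σ ⁅u 0 b, u 0 b'⁆ = 1 := fun b b' => by
      rw [map_commutatorElement, hu, hu, commutatorElement_eq_one_iff_mul_comm, uG_mul, uG_mul,
        add_comm b b']
    let β : F → F → Subgroup.center Γ := fun b b' => ⟨⁅u 0 b, u 0 b'⁆, hc (hσ1 b b')⟩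
    have hl : ∀ b1 b2 b', β (b1 + b2) b' = β b1 b' * β b2 b' := by
      intro b1 b2 b'
      apply Subtype.ext
      show ⁅u 0 (b1 + b2), u 0 b'⁆ = ⁅u 0 b1, u 0 b'⁆ * ⁅u 0 b2, u 0 b'⁆
      rw [comm_congr σ hc (x := u 0 (b1 + b2)) (x' := u 0 b1 * u 0 b2)
        (by rw [map_mul, hu, hu, hu, uG_mul]; simp) rfl, comm_mul_left, hcen _ (hσ1 b2 b'),
        mul_inv_cancel_right, hcen _ (hσ1 b2 b')]
    have hr : ∀ b b1 b2, β b (b1 + b2) = β b b1 * β b b2 := by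
      intro b b1 b2
      have e : ∀ p q, β q p = (β p q)⁻¹ := fun p q =>
        Subtype.ext (commutatorElement_inv (u 0 p) (u 0 q)).symm
      rw [e (b1 + b2) b, hl, _root_.mul_inv_rev, ← e b1 b, ← e b2 b]
      exact Subtype.ext (Subgroup.mem_center_iff.1 (β b b1).2 _)
    intro b b'
    have := pairing_linear_zero c hl hr (fun x p q hx => by
      obtain ⟨-, ⟨h, hh⟩, -⟩ := theta_units_surj c x hx
      apply Subtype.ext
      show ⁅u 0 (x * p), u 0 (x * q)⁆ = ⁅u 0 p, u 0 q⁆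
      have ep : σ (u 0 (x * p)) = σ (tt h * u 0 p * (tt h)⁻¹) := by rw [hconj, mul_zero, hh]
      have eq' : σ (u 0 (x * q)) = σ (tt h * u 0 q * (tt h)⁻¹) := by rw [hconj, mul_zero, hh]
      rw [comm_congr σ hc ep eq', hconj_comm, hcen _ (hσ1 p q), mul_inv_cancel_right]) b b'
    exact congrArg Subtype.val this
  let Cs : Subgroup ↥(Cfsg.Sz F m) :=
    { carrier := {g | ∃ b, g = uG c 0 b}
      one_mem' := ⟨0, (uG_zero c).symm⟩
      mul_mem' := by rintro _ _ ⟨b, rfl⟩ ⟨b', rfl⟩; exact ⟨b + b', by rw [uG_mul]; simp⟩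
      inv_mem' := by rintro _ ⟨b, rfl⟩; exact ⟨b, by rw [uG_inv]; simp⟩ }
  let P := (uSub c).comap σ
  have hcentral : ∀ x y, σ x ∈ uSub c → σ y ∈ Cs → x * y = y * x := by
    rintro x y ⟨a, b, hx⟩ ⟨b', hy⟩
    rw [← commutatorElement_eq_one_iff_mul_comm,
      comm_congr σ hc (x' := u a 0 * u 0 b) (y' := u 0 b')
        (by rw [hx, map_mul, hu, hu, uG_mul]; simp) (by rw [hy, hu]),
      comm_mul_left, h1, mul_one, mul_inv_cancel, one_mul, h2]
  have hCsU : ∀ y, σ y ∈ Cs → σ y ∈ uSub c := fun y ⟨b, hb⟩ => ⟨0, b, hb⟩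
  letI : CommGroup ↥(Cs.comap σ) :=
    { (inferInstance : Group ↥(Cs.comap σ)) with
      mul_comm := fun x y => Subtype.ext (hcentral x y (hCsU _ x.2) y.2) }
  obtain ⟨k0, hk0, hk1⟩ := c.exists_k0
  set h0 : Fˣ := Units.mk0 k0 hk0
  have hh0 : h0 ≠ 1 := fun e => hk1 (congrArg Units.val e)
  have hCconj : ∀ h (v : Γ), σ v ∈ Cs → σ (tt h * v * (tt h)⁻¹) ∈ Cs := by
    rintro h v ⟨b, hb⟩
    refine ⟨(h : F) ^ 2 * th F m h * b, ?_⟩
    rw [map_mul, map_mul, map_inv, htt, hb, tHom_conj_uG, mul_zero]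
  let φ : ↥(Cs.comap σ) →* ↥(Cs.comap σ) :=
    { toFun := fun v => ⟨tt h0 * v.1 * (tt h0)⁻¹, hCconj h0 _ v.2⟩ * v⁻¹
      map_one' := by
        rw [inv_one, mul_one]
        apply Subtype.ext
        show tt h0 * 1 * (tt h0)⁻¹ = 1
        group
      map_mul' := fun v w => by
        rw [mul_inv, mul_mul_mul_comm]
        congr 1
        apply Subtype.ext
        show tt h0 * (v.1 * w.1) * (tt h0)⁻¹ = tt h0 * v.1 * (tt h0)⁻¹ * (tt h0 * w.1 * (tt h0)⁻¹)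
        group }
  have hlam : (h0 : F) ^ 2 * th F m h0 + 1 ≠ 0 := fun e => (sq_mul_theta_ne c h0 hh0).2 (by
    have := eq_neg_of_add_eq_zero_left e; rwa [CharTwo.neg_eq] at this)
  have hφσ : ∀ (v : ↥(Cs.comap σ)) b, σ v.1 = uG c 0 b →
      σ (φ v).1 = uG c 0 (((h0 : F) ^ 2 * th F m h0 + 1) * b) := by
    intro v b hb
    show σ (tt h0 * v.1 * (tt h0)⁻¹ * (v.1)⁻¹) = _
    rw [map_mul, map_mul, map_mul, map_inv, map_inv, htt, hb, tHom_conj_uG, uG_inv, uG_mul, mul_zero]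
    congr 1 <;> simp [add_mul, add_self0]
  have hLZ : ∀ x ∈ φ.range, σ x.1 = 1 → x = 1 := by
    rintro _ ⟨v, rfl⟩ hx
    obtain ⟨b, hb⟩ := v.2
    rw [hφσ v b hb, ← uG_zero c] at hx
    have hb0 : b = 0 := (mul_eq_zero.1 (uG_inj c hx).2).resolve_left hlam
    rw [hb0, uG_zero] at hb
    apply Subtype.ext
    show tt h0 * v.1 * (tt h0)⁻¹ * (v.1)⁻¹ = 1
    rw [hcen _ hb, mul_inv_cancel_right, mul_inv_cancel]
  have hTinv : ∀ h (y : ↥(Cs.comap σ)),
      (⟨tt h * y.1 * (tt h)⁻¹, hCconj h _ y.2⟩ : ↥(Cs.comap σ)) * y⁻¹ ∈ φ.range := by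
    intro h y
    obtain ⟨b, hb⟩ := y.2
    let v : ↥(Cs.comap σ) := ⟨u 0 (b / ((h0 : F) ^ 2 * th F m h0 + 1)), ⟨_, hu _ _⟩⟩
    have hzy : σ ((φ v).1⁻¹ * y.1) = 1 := by
      rw [map_mul, map_inv, hφσ v _ (hu _ _), hb, mul_div_cancel₀ _ hlam, inv_mul_cancel]
    set w := (φ v).1⁻¹ * y.1 with hw
    let v' : ↥(Cs.comap σ) := ⟨tt h * v.1 * (tt h)⁻¹, hCconj h _ v.2⟩
    refine ⟨v' * v⁻¹, ?_⟩
    rw [map_mul, map_inv]
    apply Subtype.ext
    show (φ v').1 * (φ v).1⁻¹ = tt h * y.1 * (tt h)⁻¹ * y.1⁻¹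
    have hy : y.1 = (φ v).1 * w := by rw [hw, mul_inv_cancel_left]
    have hswap : (φ v').1 = tt h * (φ v).1 * (tt h)⁻¹ := by
      have ht : σ (tt h * tt h0) = σ (tt h0 * tt h) := by
        rw [map_mul, map_mul, htt, htt, ← map_mul, ← map_mul, mul_comm]
      have hz' : ∀ g, g * ((tt h0 * tt h)⁻¹ * (tt h * tt h0)) = ((tt h0 * tt h)⁻¹ * (tt h * tt h0)) * g :=
        hcen _ (by rw [map_mul, map_inv, ht, inv_mul_cancel])
      show tt h0 * (tt h * v.1 * (tt h)⁻¹) * (tt h0)⁻¹ * (tt h * v.1 * (tt h)⁻¹)⁻¹ =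
        tt h * (tt h0 * v.1 * (tt h0)⁻¹ * v.1⁻¹) * (tt h)⁻¹
      have e1 : tt h * tt h0 * v.1 * (tt h * tt h0)⁻¹ = tt h0 * tt h * v.1 * (tt h0 * tt h)⁻¹ := by
        set d := (tt h0 * tt h)⁻¹ * (tt h * tt h0) with hd
        have : tt h * tt h0 = tt h0 * tt h * d := by rw [hd, mul_inv_cancel_left]
        rw [this, mul_assoc (tt h0 * tt h) d, ← hz' v.1]
        group
      have l : tt h0 * (tt h * v.1 * (tt h)⁻¹) * (tt h0)⁻¹ * (tt h * v.1 * (tt h)⁻¹)⁻¹ =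
          tt h0 * tt h * v.1 * (tt h0 * tt h)⁻¹ * (tt h * v.1⁻¹ * (tt h)⁻¹) := by group
      rw [l, ← e1]; group
    rw [hswap, hy, show tt h * ((φ v).1 * w) * (tt h)⁻¹ = tt h * (φ v).1 * (tt h)⁻¹ * w by
      rw [← mul_assoc, mul_assoc _ w, ← hcen w hzy, ← mul_assoc], _root_.mul_inv_rev,
      mul_assoc (tt h * (φ v).1 * (tt h)⁻¹) w, mul_inv_cancel_left]
  have hUC : ∀ a a', σ ⁅u a 0, u a' 0⁆ ∈ Cs := by
    intro a a'
    rw [map_commutatorElement, hu, hu, commutatorElement_def, uG_inv, uG_inv, uG_mul, uG_mul, uG_mul]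
    refine ⟨_, congrArg₂ (uG c) ?_ rfl⟩
    linear_combination add_self0 a + add_self0 a'
  have hcomm3 : ∀ a a', (⟨⁅u a 0, u a' 0⁆, hUC a a'⟩ : ↥(Cs.comap σ)) ∈ φ.range := by
    let β : F → F → ↥(Cs.comap σ) ⧸ φ.range := fun a a' => QuotientGroup.mk ⟨⁅u a 0, u a' 0⁆, hUC a a'⟩
    have hl : ∀ a1 a2 a', β (a1 + a2) a' = β a1 a' * β a2 a' := by
      intro a1 a2 a'
      rw [mul_comm]
      show QuotientGroup.mk _ = QuotientGroup.mk _ * QuotientGroup.mk _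
      rw [← QuotientGroup.mk_mul]
      congr 1
      apply Subtype.ext
      show ⁅u (a1 + a2) 0, u a' 0⁆ = ⁅u a2 0, u a' 0⁆ * ⁅u a1 0, u a' 0⁆
      have hU1 : σ (u a1 0) ∈ uSub c := ⟨_, _, hu _ _⟩
      rw [comm_congr σ hc (x := u (a1 + a2) 0) (x' := u a1 0 * u a2 0 * u 0 (a2 * th F m a1)) (by
          rw [map_mul, map_mul, hu, hu, hu, hu, uG_mul, uG_mul]
          simp [add_self0]) rfl,
        comm_mul_left, commutatorElement_eq_one_iff_mul_comm.2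
          (hcentral (u a' 0) (u 0 (a2 * th F m a1)) ⟨_, _, hu _ _⟩ ⟨_, hu _ _⟩).symm,
        mul_one, mul_inv_cancel, one_mul, comm_mul_left, hcentral _ _ hU1 (hUC a2 a'),
        mul_inv_cancel_right]
    have hr : ∀ a b b', β a (b + b') = β a b * β a b' := by
      intro a b b'
      have e : ∀ p q, β q p = (β p q)⁻¹ := fun p q => by
        show QuotientGroup.mk _ = (QuotientGroup.mk _)⁻¹
        rw [← QuotientGroup.mk_inv]
        congr 1
        exact Subtype.ext (commutatorElement_inv (u p 0) (u q 0)).symm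
      rw [e (b + b') a, hl, mul_inv, ← e b a, ← e b' a]
    intro a a'
    rw [← QuotientGroup.eq_one_iff]
    refine pairing_linear_zero c hl hr (fun x p q hx => ?_) a a'
    obtain ⟨⟨h, hh⟩, -, -⟩ := theta_units_surj c x hx
    have ep : σ (u (x * p) 0) = σ (tt h * u p 0 * (tt h)⁻¹) := by rw [hconj, mul_zero, hh]
    have eq' : σ (u (x * q) 0) = σ (tt h * u q 0 * (tt h)⁻¹) := by rw [hconj, mul_zero, hh]
    show QuotientGroup.mk _ = QuotientGroup.mk _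
    rw [QuotientGroup.eq]
    have hm' := φ.range.inv_mem (hTinv h ⟨⁅u p 0, u q 0⁆, hUC p q⟩)
    rw [mul_inv, inv_inv] at hm'
    convert hm' using 2
    apply inv_inj.2
    apply Subtype.ext
    show ⁅u (x * p) 0, u (x * q) 0⁆ = tt h * ⁅u p 0, u q 0⁆ * (tt h)⁻¹
    rw [comm_congr σ hc ep eq', hconj_comm]
  have hder : ⁅P, P⁆ ≤ φ.range.map (Cs.comap σ).subtype := by
    rw [Subgroup.commutator_le]
    rintro x ⟨a, b, hx⟩ y ⟨a', b', hy⟩
    refine ⟨_, hcomm3 a a', ?_⟩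
    show ⁅u a 0, u a' 0⁆ = ⁅x, y⁆
    have hc1 : ∀ v w, σ w ∈ uSub c → ⁅u 0 v, w⁆ = 1 := fun v w hw =>
      commutatorElement_eq_one_iff_mul_comm.2 (hcentral w (u 0 v) hw ⟨_, hu _ _⟩).symm
    have hc2 : ∀ v w, σ w ∈ uSub c → ⁅w, u 0 v⁆ = 1 := fun v w hw =>
      commutatorElement_eq_one_iff_mul_comm.2 (hcentral w (u 0 v) hw ⟨_, hu _ _⟩)
    rw [comm_congr σ hc (x := x) (x' := u a 0 * u 0 b) (y := y) (y' := u a' 0 * u 0 b')
      (by rw [hx, map_mul, hu, hu, uG_mul]; simp) (by rw [hy, map_mul, hu, hu, uG_mul]; simp),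
      comm_mul_left, hc1 b _ (by rw [map_mul, hu, hu]; exact mul_mem (uG_mem_uSub c _ _) (uG_mem_uSub c _ _)),
      mul_one, mul_inv_cancel, one_mul, comm_mul_right, hc2 b' _ ⟨_, _, hu _ _⟩, mul_one,
      mul_inv_cancel, mul_one]
  obtain ⟨x, hx, rfl⟩ := hder hzd
  rw [hLZ x hx hz]; rfl

end Cfsg.Agent.Lib.Suz8
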