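import Mathlib.GroupTheory.Coset.Basic
import Mathlib.GroupTheory.GroupAction.Quotient
import Mathlib.GroupTheory.Commutator.Basic
import Mathlib.GroupTheory.Abelianization.Defs
import Mathlib.Tactic.Abel
import Mathlib.Algebra.Group.MinimalAxioms
import Mathlib.Tactic.Group
import Mathlib.Algebra.BigOperators.Group.Finset.Basic

/-! Central extensions from the corestriction of a two-cocycle of a subgroup. -/

set_option autoImplicit false

namespace Cfsg.Agent.Lib.Suz8

open scoped commutatorElement

universe u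

section Twist

variable {G : Type u} {A : Type u} [Group G] [AddCommGroup A]

/-- The group on pairs given by a cocycle. -/
@[ext]
structure Tw (c : G → G → A) (hc : ∀ g h l, c g h + c (g * h) l = c h l + c g (h * l)) where
  /-- the element of the base -/
  g : G
  /-- the central part -/
  a : A

variable {c : G → G → A} {hc : ∀ g h l, c g h + c (g * h) l = c h l + c g (h * l)}

theorem cocycle_one_left (hc : ∀ g h l, c g h + c (g * h) l = c h l + c g (h * l)) (g : G) :
    c 1 g = c 1 1 := by
  have := hc 1 1 g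
  rw [mul_one, one_mul] at this
  exact (add_right_cancel this).symm

theorem cocycle_one_right (hc : ∀ g h l, c g h + c (g * h) l = c h l + c g (h * l)) (g : G) :
    c g 1 = c 1 1 := by
  have := hc g 1 1
  rw [mul_one, mul_one] at this
  exact add_right_cancel this

instance : Mul (Tw c hc) := ⟨fun x y => ⟨x.g * y.g, x.a + y.a + c x.g y.g⟩⟩
instance : One (Tw c hc) := ⟨⟨1, -c 1 1⟩⟩
instance : Inv (Tw c hc) := ⟨fun x => ⟨x.g⁻¹, -x.a - c x.g⁻¹ x.g - c 1 1⟩⟩

@[simp] theorem Tw.mul_g (x y : Tw c hc) : (x * y).g = x.g * y.g := rfl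
@[simp] theorem Tw.mul_a (x y : Tw c hc) : (x * y).a = x.a + y.a + c x.g y.g := rfl
@[simp] theorem Tw.one_g : (1 : Tw c hc).g = 1 := rfl
@[simp] theorem Tw.one_a : (1 : Tw c hc).a = -c 1 1 := rfl
@[simp] theorem Tw.inv_g (x : Tw c hc) : x⁻¹.g = x.g⁻¹ := rfl
@[simp] theorem Tw.inv_a (x : Tw c hc) : x⁻¹.a = -x.a - c x.g⁻¹ x.g - c 1 1 := rfl

instance : Group (Tw c hc) := Group.ofLeftAxioms
  (fun x y z => Tw.ext (mul_assoc _ _ _) (by
    have h := hc x.g y.g z.g
    simp only [Tw.mul_a, Tw.mul_g]
    rw [add_comm (c y.g z.g)] at h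
    calc x.a + y.a + c x.g y.g + z.a + c (x.g * y.g) z.g
        = x.a + y.a + z.a + (c x.g y.g + c (x.g * y.g) z.g) := by abel
      _ = x.a + y.a + z.a + (c x.g (y.g * z.g) + c y.g z.g) := by rw [h]
      _ = x.a + (y.a + z.a + c y.g z.g) + c x.g (y.g * z.g) := by abel))
  (fun x => Tw.ext (one_mul _) (by simp [cocycle_one_left hc]))
  (fun x => Tw.ext (inv_mul_cancel _) (by simp only [Tw.mul_a, Tw.inv_a, Tw.inv_g, Tw.one_a]; abel))

variable (c hc) in
/-- The projection. -/
def twProj : Tw c hc →* G where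
  toFun x := x.g
  map_one' := rfl
  map_mul' _ _ := rfl

theorem twProj_surjective : Function.Surjective (twProj c hc) := fun g => ⟨⟨g, 0⟩, rfl⟩

theorem twProj_ker_center : (twProj c hc).ker ≤ Subgroup.center (Tw c hc) := by
  intro x hx
  have hg : x.g = 1 := hx
  rw [Subgroup.mem_center_iff]
  intro y
  ext
  · simp [hg]
  · simp only [Tw.mul_a, hg, cocycle_one_left hc, cocycle_one_right hc]
    abel

variable (c hc) in
/-- The kernel is the coefficient group. -/
def kerEquiv : Multiplicative A ≃* (twProj c hc).ker where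
  toFun a := ⟨⟨1, a.toAdd - c 1 1⟩, rfl⟩
  invFun x := Multiplicative.ofAdd ((x : Tw c hc).a + c 1 1)
  left_inv a := by simp
  right_inv x := Subtype.ext (Tw.ext x.2.symm (by simp))
  map_mul' a b := Subtype.ext (Tw.ext (by simp) (by simp only [toAdd_mul, Subgroup.coe_mul, Tw.mul_a]; abel))

instance [Finite G] [Finite A] : Finite (Tw c hc) :=
  Finite.of_injective (fun x => (x.g, x.a)) fun _ _ h =>
    Tw.ext (congrArg Prod.fst h) (congrArg Prod.snd h)

/-- The commutator of lifts of commuting elements. -/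
theorem mem_commutator_of_commute {g h : G} (hgh : g * h = h * g) :
    ((kerEquiv c hc (Multiplicative.ofAdd (c g h - c h g)) : (twProj c hc).ker) : Tw c hc) ∈
      commutator (Tw c hc) := by
  set z : Tw c hc := ((kerEquiv c hc (Multiplicative.ofAdd (c g h - c h g)) : (twProj c hc).ker) : Tw c hc)
  let x : Tw c hc := ⟨g, 0⟩
  let y : Tw c hc := ⟨h, 0⟩
  have e : x * y = z * (y * x) := by
    ext
    · simp [x, y, z, kerEquiv, hgh]
    · simp only [x, y, z, kerEquiv, Tw.mul_a, Tw.mul_g, MulEquiv.coe_mk, Equiv.coe_fn_mk, toAdd_ofAdd,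
        cocycle_one_left hc]
      abel
  have : z = ⁅x, y⁆ := by
    rw [commutatorElement_def, e]; group
  rw [this, commutator_def]
  exact Subgroup.commutator_mem_commutator (Subgroup.mem_top x) (Subgroup.mem_top y)

end Twist

section Cores

variable {G : Type u} {A : Type u} [Group G] [AddCommGroup A] (U : Subgroup G) [Fintype (G ⧸ U)]
  (rep : G ⧸ U → G) (hrep : ∀ p, (QuotientGroup.mk (rep p) : G ⧸ U) = p) (f : U → U → A)

include hrep in
omit [Fintype (G ⧸ U)] in
theorem schreier_mem (g : G) (p : G ⧸ U) : (rep (g • p))⁻¹ * g * rep p ∈ U := by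
  rw [mul_assoc, ← QuotientGroup.eq, hrep, ← smul_eq_mul]
  conv_lhs => rw [← hrep p]
  rfl

/-- The Schreier element. -/
def schreier (g : G) (p : G ⧸ U) : U :=
  ⟨(rep (g • p))⁻¹ * g * rep p, schreier_mem U rep hrep g p⟩

omit [Fintype (G ⧸ U)] in
theorem schreier_mul (g h : G) (p : G ⧸ U) :
    schreier U rep hrep (g * h) p = schreier U rep hrep g (h • p) * schreier U rep hrep h p := by
  refine Subtype.ext ?_
  simp only [schreier, Subgroup.coe_mul, mul_smul]
  group

/-- The corestriction. -/
def cores (g h : G) : A := ∑ p : G ⧸ U, f (schreier U rep hrep g (h • p)) (schreier U rep hrep h p)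

theorem cores_cocycle (hf : ∀ x y z, f x y + f (x * y) z = f y z + f x (y * z)) (g h l : G) :
    cores U rep hrep f g h + cores U rep hrep f (g * h) l =
      cores U rep hrep f h l + cores U rep hrep f g (h * l) := by
  have e : cores U rep hrep f g h =
      ∑ p : G ⧸ U, f (schreier U rep hrep g (h • l • p)) (schreier U rep hrep h (l • p)) :=
    (Equiv.sum_comp (MulAction.toPerm l) (fun p : G ⧸ U =>
      f (schreier U rep hrep g (h • p)) (schreier U rep hrep h p))).symm
  rw [e]
  simp only [cores, ← Finset.sum_add_distrib]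
  refine Finset.sum_congr rfl fun p _ => ?_
  rw [schreier_mul U rep hrep g h, schreier_mul U rep hrep h l, mul_smul]
  exact hf _ _ _

end Cores

end Cfsg.Agent.Lib.Suz8
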